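import Cfsg.Agent.H217.Odm.Eng
import Cfsg.Agent.H153.ZerosHe
import Cfsg.Agent.H478.SporHe
import Cfsg.Agent.NotCT.Orders

/-!
# TEAM ODDM (S4785): the Held group (helper29)

`r = 17`, `ss = [7]`: the elements of order 17 and 7 are (powers of) products of two involutions.
-/

set_option autoImplicit false

namespace Cfsg.Agent.H29.OdmHe

open Subgroup Cfsg
open Cfsg.Agent.OrdDiv Cfsg.Agent.H453.OddM Cfsg.Agent.H257.El Cfsg.Agent.H278.El
open Cfsg.Spor Cfsg.Spor.He Cfsg.Agent.SporadicB.HePerm Cfsg.Agent.FixBN.HeStab Cfsg.Agent.KFacts.He.Lv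
open Cfsg.Agent.CpAutHe.Cnt Cfsg.Agent.CpAutHe.Bound
open Cfsg.Agent.H153.Zeros.He17

universe u

theorem realP_congr {G H : Type*} [Group G] [Group H] (e : G ≃* H) {r : ℕ} (h : RealP G r) : RealP H r := by
  obtain ⟨x, hx, hr⟩ := h
  exact ⟨e x, by rw [e.orderOf_eq]; exact hx, hr.map e.toMonoidHom⟩

theorem sq_word {w : List Gen} (h : chkB (w ++ w) [] = true) : (wd w) ^ 2 = 1 := by
  have h1 := eq_of_chkB h
  rw [wd_nil] at h1
  rw [pow_two, ← h1]
  simp [wd]

theorem real17 : RealP Spor.He 17 := by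
  refine ⟨wd ([.b, .d] ++ [.c, .f]), hasOrd_word (by norm_num) [17] (by decide +kernel) (by decide +kernel), ?_⟩
  have h : wd ([.b, .d] ++ [.c, .f]) = wd [.b, .d] * wd [.c, .f] := by simp [wd, mul_assoc]
  rw [h]
  exact IsReal.of_mul (sq_word (by decide +kernel)) (sq_word (by decide +kernel))

theorem real7 : RealP Spor.He 7 := by
  have hr : IsReal (wd [.c, .e] * wd [.b, .d]) :=
    IsReal.of_mul (sq_word (by decide +kernel)) (sq_word (by decide +kernel))
  have h : wd ([.c, .e, .b, .d, .c, .e, .b, .d, .c, .e, .b, .d]) = (wd [.c, .e] * wd [.b, .d]) ^ 3 := by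
    simp [wd, pow_succ, mul_assoc]
  refine ⟨_, hasOrd_word (w := [.c, .e, .b, .d, .c, .e, .b, .d, .c, .e, .b, .d]) (by norm_num) [7]
    (by decide +kernel) (by decide +kernel), ?_⟩
  rw [h]
  exact hr.pow 3

theorem row (tab : Cfsg.Agent.OrdDiv.OrderTable.{u}) (known : Cfsg.Agent.H257.El.Known.{u}) {T : Type u} [Group T]
    (h : Cfsg.Spor.IsoHe T) : Cfsg.Agent.H453.OddM.Row T := by
  have hc := NotCT.Orders.he h
  have : Finite T := Nat.finite_of_card_ne_zero (by rw [hc]; norm_num)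
  obtain ⟨e⟩ := h
  refine Cfsg.Agent.H217.Odm.row_of_empty (n := 4030387200) (l := [(2, 10), (3, 3), (5, 2), (7, 3), (17, 1)])
    (r := 17) (ss := [7]) tab known hc (by norm_num) (realP_congr e.symm real17) ?_ (by decide +kernel)
  intro s hs
  rw [List.mem_singleton] at hs
  subst hs
  exact ⟨by norm_num, realP_congr e.symm real7,
    noOrd_congr e (noOrd_of_noComm (by norm_num) (by norm_num) fun x y hx hy => H478.SporHe.no119 hx hy)⟩

end Cfsg.Agent.H29.OdmHe
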